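import Cfsg.Agent.Lib.Th.Struct
import Cfsg.Agent.Lib.Th.E8D
/-! The Thompson group is a subgroup of `E8(3)` (helper74) -/
set_option autoImplicit false
namespace H74.E8
open H54 H15.Mdl H78.Vec H78.Th Cfsg.Spor Cfsg.Lie Matrix

theorem exists_P : ∃ y : GL (Fin 248) (ZMod 3), (pr 20 683 11).R 248 y.val cP := by
  obtain ⟨y, a⟩ := exists_gl (m := 1) par_ok (fun i hi => by rw [Nat.lt_one_iff.1 hi]; exact PQ_ok)
  have := a (2 * 0) (by norm_num)
  have e : ∀ a b : ℕ, nth [a, b] (2 * 0) = a := fun _ _ => rfl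
  rw [xl_even, e] at this
  exact ⟨y 0, this⟩

theorem R_x (i : ℕ) (hi : i < 8) : (pr 20 683 11).R 248 (ρ (x i)).val (nth LM (2 * i)) := by
  have r' := letφ (2 * i) (by omega)
  rw [xl_even] at r'
  exact r'

theorem In_conj {y g : GL (Fin 248) (ZMod 3)} {A : Matrix (Fin 248) (Fin 248) (ZMod 3)} (b : In A)
    (c : y.val * A = g.val * y.val) : In (y⁻¹ * g * y⁻¹⁻¹).val := by
  have : (y⁻¹ * g * y⁻¹⁻¹).val = A := by
    rw [inv_inv, mul_assoc, Units.val_mul, Units.val_mul, Units.inv_mul_eq_iff_eq_mul]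
    exact c.symm
  rwa [this]

theorem exists_conj : ∃ Q : GL (Fin 248) (ZMod 3), ∀ i, i < 8 → In (Q * ρ (x i) * Q⁻¹).val := by
  obtain ⟨y, r⟩ := exists_P
  have key : ∀ i, i < 8 → ∀ l, chk 20 683 11 248 cP (nth LM (2 * i)) l = true →
      In (y⁻¹ * ρ (x i) * y⁻¹⁻¹).val := fun i hi l e => by
    obtain ⟨A, b, c⟩ := chk_spec par_ok r (R_x i hi) e
    exact In_conj b c
  refine ⟨y⁻¹, fun i hi => ?_⟩
  interval_cases i
  exacts [key 0 hi _ w0_ok, key 1 hi _ w1_ok, key 2 hi _ w2_ok, key 3 hi _ w3_ok, key 4 hi _ w4_ok,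
    key 5 hi _ w5_ok, key 6 hi _ w6_ok, key 7 hi _ w7_ok]

theorem exists_reindex : ∃ e : GL (Fin 248) (ZMod 3) ≃* GL chevE8.Idx (ZMod 3),
    ∀ g, (e g).val = g.val.submatrix ι ι :=
  ⟨Units.mapEquiv (Matrix.reindexAlgEquiv (ZMod 3) (ZMod 3) ι.symm).toMulEquiv, fun _ => rfl⟩

theorem embed {G : Type} [Group G] {ρ : G →* GL (Fin 248) (ZMod 3)} (h : Function.Injective ρ) {x : ℕ → G}
    {m : ℕ} (hx : gen x m = ⊤) {Q : GL (Fin 248) (ZMod 3)} (hQ : ∀ i, i < m → In (Q * ρ (x i) * Q⁻¹).val) :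
    ∃ f : G →* chevE8.group (ZMod 3), Function.Injective f := by
  obtain ⟨e, he⟩ := exists_reindex
  obtain ⟨f, hf⟩ : ∃ f : G →* GL chevE8.Idx (ZMod 3), ∀ g, f g = e (Q * ρ g * Q⁻¹) :=
    ⟨e.toMonoidHom.comp ((MulAut.conj Q).toMonoidHom.comp ρ), fun _ => rfl⟩
  have h1 : ∀ g, f g ∈ chevE8.group (ZMod 3) := fun g => by
    have : gen x m ≤ (chevE8.group (ZMod 3)).comap f := by
      refine (Subgroup.closure_le _).2 ?_
      rintro _ ⟨i, hi, rfl⟩
      exact Subgroup.mem_comap.2 (hQ i hi _ (by rw [hf, he]))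
    exact Subgroup.mem_comap.1 (this (by rw [hx]; trivial))
  refine ⟨f.codRestrict _ h1, fun a b hab => ?_⟩
  have : f a = f b := congrArg Subtype.val hab
  rw [hf, hf] at this
  exact h (mul_left_cancel (mul_right_cancel (e.injective this)))

end H74.E8

/-- **the Thompson group embeds in `E8(3)`** -/
theorem H78.Th.exists_E8 : ∃ f : Cfsg.Spor.Th →* Cfsg.Lie.chevE8.group (ZMod 3), Function.Injective f :=
  H74.E8.exists_conj.elim fun _ hQ => H74.E8.embed H78.Th.ρ_inj H78.Th.pres.top hQ
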