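import Mathlib
import Cfsg.Agent.Base
import Cfsg.Agent.Lib.Amal.Vec

/-!
# Root elements of the Chevalley group of type E8 acting on packed matrices over `ZMod 3` (helper74)
-/

set_option autoImplicit false
set_option maxRecDepth 100000

namespace H74.E8

open H54 H15.Mdl H78.Vec Matrix Cfsg.Lie

/-! ### trees of columns -/

/-- replace the entry with key `k` -/
noncomputable def tset (t : Tr) (k v : ℕ) : Tr :=
  Tr.rec (motive := fun _ => Tr) (fun _ => .leaf v)
    (fun p l r ihl ihr => Bool.rec (.node p l ihr) (.node p ihl r) (Nat.ble k p)) t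

/-- strict form of `tset` -/
noncomputable def tsetK (t : Tr) (k v : ℕ) : (Tr → Bool) → Bool :=
  Tr.rec (motive := fun _ => (Tr → Bool) → Bool) (fun _ c => c (.leaf v))
    (fun p l r ihl ihr c => Bool.rec (ihr fun r' => c (.node p l r')) (ihl fun l' => c (.node p l' r))
      (Nat.ble k p)) t

theorem tsetK_eq (k v : ℕ) : ∀ (t : Tr) (c : Tr → Bool), tsetK t k v c = c (tset t k v)
  | .leaf _, _ => rfl
  | .node p l r, c => by
    show Bool.rec (tsetK r k v fun r' => c (.node p l r')) (tsetK l k v fun l' => c (.node p l' r))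
      (Nat.ble k p) = c (Bool.rec (.node p l (tset r k v)) (.node p (tset l k v) r) (Nat.ble k p))
    rw [tsetK_eq k v l, tsetK_eq k v r]
    cases Nat.ble k p <;> rfl

/-- different keys in `[lo, hi)` reach different leaves -/
def WF (t : Tr) : ℕ → ℕ → Prop :=
  Tr.rec (motive := fun _ => ℕ → ℕ → Prop) (fun _ lo hi => hi ≤ lo + 1)
    (fun p _ _ ihl ihr lo hi => ihl lo (p + 1) ∧ ihr (p + 1) hi) t

theorem get_node (p : ℕ) (l r : Tr) (j : ℕ) :
    (Tr.node p l r).get j = if j ≤ p then l.get j else r.get j := by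
  show (Bool.rec (r.get j) (l.get j) (Nat.ble j p) : ℕ) = _
  split_ifs with h
  · rw [Nat.ble_eq_true_of_le h]
  · rw [Bool.eq_false_iff.2 fun e => h (Nat.le_of_ble_eq_true e)]

theorem tset_node (p : ℕ) (l r : Tr) (k v : ℕ) : tset (Tr.node p l r) k v =
    if k ≤ p then .node p (tset l k v) r else .node p l (tset r k v) := by
  show (Bool.rec (Tr.node p l (tset r k v)) (.node p (tset l k v) r) (Nat.ble k p) : Tr) = _
  split_ifs with h
  · rw [Nat.ble_eq_true_of_le h]
  · rw [Bool.eq_false_iff.2 fun e => h (Nat.le_of_ble_eq_true e)]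

theorem tset_spec (k v : ℕ) : ∀ (t : Tr) (lo hi : ℕ), WF t lo hi → WF (tset t k v) lo hi ∧
    (lo ≤ k → k < hi → ∀ j, lo ≤ j → j < hi → (tset t k v).get j = if j = k then v else t.get j)
  | .leaf _, lo, hi, h => ⟨h, fun _ _ j _ _ => by
      have : hi ≤ lo + 1 := h
      rw [if_pos (by omega)]; rfl⟩
  | .node p l r, lo, hi, h => by
    have a := tset_spec k v l _ _ h.1
    have b := tset_spec k v r _ _ h.2
    rw [tset_node]
    split_ifs with c
    · refine ⟨⟨a.1, h.2⟩, fun h1 h2 j h3 h4 => ?_⟩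
      rw [get_node, get_node]
      by_cases d : j ≤ p
      · rw [if_pos d, if_pos d, a.2 h1 (by omega) j h3 (by omega)]
      · rw [if_neg d, if_neg d, if_neg (by omega)]
    · refine ⟨⟨h.1, b.1⟩, fun h1 h2 j h3 h4 => ?_⟩
      rw [get_node, get_node]
      by_cases d : j ≤ p
      · rw [if_pos d, if_pos d, if_neg (by omega)]
      · rw [if_neg d, if_neg d, b.2 (by omega) h2 j (by omega) h4]

/-- the table of `f` on `[lo, lo + 2 ^ d)`, strict form -/
noncomputable def tabK (f : ℕ → ℕ) (d : ℕ) : ℕ → (Tr → Bool) → Bool :=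
  Nat.rec (motive := fun _ => ℕ → (Tr → Bool) → Bool) (fun lo c => force (f lo) fun v => c (.leaf v))
    (fun d ih lo c => force (lo + 2 ^ d) fun m => force (m - 1) fun p =>
      ih lo fun l => ih m fun r => c (.node p l r)) d

theorem tabK_spec (f : ℕ → ℕ) : ∀ (d lo : ℕ), ∃ t : Tr, WF t lo (lo + 2 ^ d) ∧
    (∀ j, lo ≤ j → j < lo + 2 ^ d → t.get j = f j) ∧ ∀ c, tabK f d lo c = c t
  | 0, lo => ⟨.leaf (f lo), le_rfl, fun j _ _ => by rw [show j = lo by omega]; rfl, fun _ => rfl⟩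
  | d + 1, lo => by
    obtain ⟨l, a1, a2, a3⟩ := tabK_spec f d lo
    obtain ⟨r, b1, b2, b3⟩ := tabK_spec f d (lo + 2 ^ d)
    have h : 0 < 2 ^ d := by positivity
    have e : lo + 2 ^ d - 1 + 1 = lo + 2 ^ d := by omega
    refine ⟨.node (lo + 2 ^ d - 1) l r, ⟨by rwa [e], ?_⟩, fun j h1 h2 => ?_, fun c => ?_⟩
    · rwa [e, pow_succ, mul_two, ← add_assoc]
    · rw [get_node]
      split_ifs
      · exact a2 j h1 (by omega)
      · exact b2 j (by omega) (by rw [pow_succ] at h2; omega)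
    · show tabK f d lo (fun l => tabK f d (lo + 2 ^ d) fun r => c (.node (lo + 2 ^ d - 1) l r)) = _
      rw [a3, b3]

/-- the entries of the tree are the codes of the columns -/
def TR {n P : ℕ} (w : ℕ) (B : Matrix (Fin n) (Fin n) (ZMod P)) (t : Tr) : Prop :=
  WF t 0 256 ∧ ∀ j : Fin n, RM n 1 w P (Matrix.of fun i _ => B i j) (t.get j)

theorem RM_lin {n w P μ s : ℕ} (h : ParOk n w P μ s) (hn : 2 ≤ n) {a b : Fin n → ZMod P} {x y c : ℕ}
    (r : RM n 1 w P (Matrix.of fun i _ => a i) x) (r' : RM n 1 w P (Matrix.of fun i _ => b i) y)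
    (hc : c < P) : RM n 1 w P (Matrix.of fun i _ => a i * c + b i)
      (red P μ s (onesN w n * (2 ^ (w - s) - 1)) (x * c + y)) := by
  have hP := h.P_ge
  have : NeZero P := ⟨by omega⟩
  have hle : ∀ l, dig w x l * c + dig w y l ≤ n * (P - 1) * (P - 1) := fun l => by
    have h1 := r.dig_lt h.n_pos hP l
    have h2 := r'.dig_lt h.n_pos hP l
    obtain ⟨k, rfl⟩ := Nat.exists_eq_add_of_le hP
    have e : 2 + k - 1 = k + 1 := by omega
    have h3 := Nat.mul_le_mul (show dig w x l ≤ k + 1 by omega) (show c ≤ k + 1 by omega)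
    have h4 := Nat.mul_le_mul_right ((k + 1) * (k + 1)) hn
    rw [e, mul_assoc]; nlinarith
  have hd : ∀ l, dig w (x * c + y) l = dig w x l * c + dig w y l := fun l =>
    dig_lin w c l x y fun j => lt_of_le_of_lt (hle j)
      (lt_of_le_of_lt (Nat.le_mul_of_pos_right _ h.μ_pos) h.bound)
  have h0 : ∀ l, n ≤ l → dig w (x * c + y) l = 0 := fun l hl => by
    rw [hd, dig_eq_zero_of_lt w _ _ r.1 l (by omega), dig_eq_zero_of_lt w _ _ r'.1 l (by omega)]; simp
  have H2 := dig_red h n _ (fun l => by rw [hd]; exact hle l) h0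
  refine ⟨lt_of_dig_eq_zero w _ _ h.w_pos fun l hl => ?_, fun i j => ?_⟩
  · rw [H2, h0 l (by omega), Nat.zero_mod]
  · rw [H2, hd, ← r.2, ← r'.2, ← ZMod.val_natCast]
    simp

/-- the sum of the coefficients at `(i, j)` -/
def ent (P : ℕ) (L : List (ℕ × ℕ × ℕ)) (i j : ℕ) : ZMod P :=
  (L.map fun e => if e.1 = i ∧ e.2.1 = j then (e.2.2 : ZMod P) else 0).sum

/-- the identity plus a sparse matrix -/
def spM (n P : ℕ) (L : List (ℕ × ℕ × ℕ)) : Matrix (Fin n) (Fin n) (ZMod P) :=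
  1 + Matrix.of fun (i j : Fin n) => ent P L i j

theorem ent_nil (P i j : ℕ) : ent P [] i j = 0 := rfl

theorem ent_cons (P : ℕ) (e : ℕ × ℕ × ℕ) (L : List (ℕ × ℕ × ℕ)) (i j : ℕ) : ent P (e :: L) i j =
    (if e.1 = i ∧ e.2.1 = j then (e.2.2 : ZMod P) else 0) + ent P L i j := by simp [ent]

theorem mul_spM_cons {n P : ℕ} (B : Matrix (Fin n) (Fin n) (ZMod P)) (e : ℕ × ℕ × ℕ) (he : e.1 < n)
    (L : List (ℕ × ℕ × ℕ)) (i j : Fin n) : (B * spM n P (e :: L)) i j =
      (if e.2.1 = j then B i ⟨e.1, he⟩ * e.2.2 else 0) + (B * spM n P L) i j := by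
  simp only [spM, Matrix.mul_apply, Matrix.add_apply, Matrix.of_apply, ent_cons, mul_add,
    Finset.sum_add_distrib]
  rw [add_left_comm]
  congr 1
  rw [Finset.sum_eq_single (⟨e.1, he⟩ : Fin n)]
  · simp
  · intro b _ hb
    rw [if_neg, mul_zero]
    rintro ⟨a, -⟩
    exact hb (Fin.ext a.symm)
  · simp

/-- the column operations of the list `L`, strict form -/
noncomputable def stepK (P μ s Eq : ℕ) (t : Tr) (L : List (ℕ × ℕ × ℕ)) : (Tr → Bool) → Bool :=
  List.rec (motive := fun _ => (Tr → Bool) → Bool) (fun c => c t)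
    (fun e _ ih c => ih fun u => force e.2.1 fun k => force e.1 fun m =>
      force (Nat.add (Nat.mul (t.get m) e.2.2) (u.get k)) fun z =>
        force (red P μ s Eq z) fun v => tsetK u k v c) L

theorem stepK_spec {n w P μ s : ℕ} (h : ParOk n w P μ s) (hn : 2 ≤ n) (hn' : n ≤ 256)
    {B : Matrix (Fin n) (Fin n) (ZMod P)} {t : Tr} (r : TR w B t) : ∀ L : List (ℕ × ℕ × ℕ),
      (∀ e ∈ L, e.1 < n ∧ e.2.1 < n ∧ e.2.2 < P) → ∃ u, TR w (B * spM n P L) u ∧
        ∀ c, stepK P μ s (onesN w n * (2 ^ (w - s) - 1)) t L c = c u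
  | [], _ => ⟨t, by
      have : spM n P [] = 1 := by ext i j; simp [spM, ent_nil]
      rwa [this, Matrix.mul_one], fun _ => rfl⟩
  | e :: L, hL => by
    obtain ⟨u, a, b⟩ := stepK_spec h hn hn' r L fun k hk => hL k (List.mem_cons_of_mem _ hk)
    obtain ⟨e1, e2, e3⟩ := hL e List.mem_cons_self
    have H := tset_spec e.2.1 (red P μ s (onesN w n * (2 ^ (w - s) - 1))
      (t.get e.1 * e.2.2 + u.get e.2.1)) u _ _ a.1
    refine ⟨_, ⟨H.1, fun j => ?_⟩, fun c => ((b _).trans (tsetK_eq _ _ _ _))⟩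
    rw [H.2 (Nat.zero_le _) (by omega) j (Nat.zero_le _) (by omega)]
    simp only [mul_spM_cons B e e1]
    by_cases d : e.2.1 = j
    · simp only [d, if_true]
      exact RM_lin h hn (r.2 ⟨e.1, e1⟩) (a.2 j) e3
    · simp only [d, Ne.symm d, if_false, zero_add]
      exact a.2 j

/-! ### the root elements -/

/-- the residue modulo three -/
def m3 (c : ℤ) : ℕ := (c % 3).toNat

theorem m3_lt (c : ℤ) : m3 c < 3 := by unfold m3; omega

theorem m3_cast (c : ℤ) : ((m3 c : ℕ) : ZMod 3) = (c : ZMod 3) := by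
  have : ((m3 c : ℕ) : ℤ) = c % 3 := Int.toNat_of_nonneg (Int.emod_nonneg _ (by norm_num))
  rw [← Int.cast_natCast, this]
  exact ZMod.intCast_mod c 3

/-- the entries along the chains -/
def sp4 (l : List (ℕ × Array (ℕ × ℤ))) (t : ℕ) : List (ℕ × ℕ × ℕ) :=
  l.flatMap fun e => e.2.toList.zipIdx.map fun q => (8 + q.1.1, 8 + e.1, m3 (q.1.2 * t ^ (q.2 + 1)))

/-- the entries of `x_r(t) - 1` -/
def sp (r t : ℕ) : List (ℕ × ℕ × ℕ) :=
  (List.range 8).map (fun i => (8 + r, i, m3 (-((chevE8.cartanSR.getD i #[]).getD r 0) * t))) ++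
  ((List.range 8).map (fun i =>
    (i, 8 + chevE8.negIdx.getD r 0, m3 ((chevE8.coroot.getD r #[]).getD i 0 * t))) ++
  ((8 + r, 8 + chevE8.negIdx.getD r 0, m3 (-(t ^ 2))) :: sp4 (chevE8.chain.getD r #[]).toList t))

theorem ent_append (P : ℕ) (L L' : List (ℕ × ℕ × ℕ)) (i j : ℕ) :
    ent P (L ++ L') i j = ent P L i j + ent P L' i j := by simp [ent]

theorem ent_eq_zero {P : ℕ} {L : List (ℕ × ℕ × ℕ)} {i j : ℕ} (h : ∀ e ∈ L, ¬ (e.1 = i ∧ e.2.1 = j)) :
    ent P L i j = 0 := by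
  refine List.sum_eq_zero fun x hx => ?_
  obtain ⟨e, he, rfl⟩ := List.mem_map.1 hx
  exact if_neg (h e he)

theorem sum_rg (f : ℕ → ZMod 3) (n : ℕ) : ((List.range n).map f).sum = ∑ i ∈ Finset.range n, f i := rfl

theorem ent_row (a : ℕ) (c : ℕ → ℤ) (i j : ℕ) :
    ent 3 ((List.range 8).map fun k => (a, k, m3 (c k))) i j =
      if a = i ∧ j < 8 then (c j : ZMod 3) else 0 := by
  rw [ent, List.map_map, sum_rg]
  by_cases h : a = i
  · simp [h, m3_cast]
  · simp [h]

theorem ent_col (a : ℕ) (c : ℕ → ℤ) (i j : ℕ) :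
    ent 3 ((List.range 8).map fun k => (k, a, m3 (c k))) i j =
      if a = j ∧ i < 8 then (c i : ZMod 3) else 0 := by
  rw [ent, List.map_map, sum_rg]
  by_cases h : a = j
  · simp [h, m3_cast]
  · simp [h]

theorem ent_in (s t u : ℕ) : ∀ z : List ((ℕ × ℤ) × ℕ),
    ent 3 (z.map fun q => (8 + q.1.1, 8 + s, m3 (q.1.2 * t ^ (q.2 + 1)))) (8 + u) (8 + s) =
      (((z.filter fun q => q.1.1 = u).map fun q => (q.2 + 1, q.1.2)).map
        fun km : ℕ × ℤ => ((km.2 : ℤ) : ZMod 3) * (t : ZMod 3) ^ km.1).sum := by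
  intro z
  induction z with
  | nil => rfl
  | cons q z ih =>
    rw [List.map_cons, ent_cons, ih]
    by_cases h : q.1.1 = u
    · simp [h, m3_cast]
    · simp [h]

theorem ent_sp4 (s t u : ℕ) : ∀ l : List (ℕ × Array (ℕ × ℤ)), ent 3 (sp4 l t) (8 + u) (8 + s) =
    (((l.filter fun e => e.1 = s).flatMap fun e =>
      ((e.2.toList.zipIdx).filter fun q => q.1.1 = u).map fun q => (q.2 + 1, q.1.2)).map
        fun km : ℕ × ℤ => ((km.2 : ℤ) : ZMod 3) * (t : ZMod 3) ^ km.1).sum := by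
  intro l
  induction l with
  | nil => rfl
  | cons e l ih =>
    rw [sp4, List.flatMap_cons, ent_append, ← sp4, ih]
    by_cases h : e.1 = s
    · rw [List.filter_cons_of_pos (by simpa using h), List.flatMap_cons, List.map_append,
        List.sum_append, h, ent_in]
    · rw [List.filter_cons_of_neg (by simpa using h), ent_eq_zero, zero_add]
      intro a ha
      obtain ⟨q, -, rfl⟩ := List.mem_map.1 ha
      exact fun b => h (by have := b.2; simpa using this)

theorem mem_sp4 {l : List (ℕ × Array (ℕ × ℤ))} {t : ℕ} {a : ℕ × ℕ × ℕ} (h : a ∈ sp4 l t) :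
    ∃ e ∈ l, ∃ q ∈ e.2.toList, a.1 = 8 + q.1 ∧ a.2.1 = 8 + e.1 ∧ a.2.2 < 3 := by
  obtain ⟨e, he, h⟩ := List.mem_flatMap.1 h
  obtain ⟨q, hq, rfl⟩ := List.mem_map.1 h
  exact ⟨e, he, q.1, List.fst_mem_of_mem_zipIdx hq, rfl, rfl, m3_lt _⟩

/-- the tables of the root `r` are well formed -/
def okR (r : ℕ) : Bool :=
  decide (chevE8.negIdx.getD r 0 ≠ r ∧ chevE8.negIdx.getD r 0 < 240) &&
  (chevE8.chain.getD r #[]).toList.all fun e => decide (e.1 ≠ r ∧ e.1 ≠ chevE8.negIdx.getD r 0 ∧ e.1 < 240) &&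
    e.2.toList.all fun q => decide (q.1 < 240)

theorem okR_all : allLt okR 240 = true := by decide +kernel

theorem sp_ok {r : ℕ} (hr : r < 240) (t : ℕ) : ∀ e ∈ sp r t, e.1 < 248 ∧ e.2.1 < 248 ∧ e.2.2 < 3 := by
  have h := (allLt_iff _ _).1 okR_all r hr
  simp only [okR, Bool.and_eq_true, decide_eq_true_eq, List.all_eq_true] at h
  obtain ⟨⟨h1, h2⟩, h4⟩ := h
  intro e he
  simp only [sp, List.mem_append, List.mem_map, List.mem_range, List.mem_cons] at he
  rcases he with ⟨i, hi, rfl⟩ | ⟨i, hi, rfl⟩ | rfl | he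
  · exact ⟨by show 8 + r < 248; omega, by show i < 248; omega, m3_lt _⟩
  · exact ⟨by show i < 248; omega, by show 8 + _ < 248; omega, m3_lt _⟩
  · exact ⟨by show 8 + r < 248; omega, by show 8 + _ < 248; omega, m3_lt _⟩
  · obtain ⟨a, ha, q, hq, e1, e2, e3⟩ := mem_sp4 he
    have := (h4 a ha).1
    have := (h4 a ha).2 q hq
    omega

/-- the numbering of the basis -/
def ι : chevE8.Idx ≃ Fin 248 := finSumFinEquiv (m := 8) (n := 240)

theorem ι_inl (i : Fin chevE8.rank) : (ι (Sum.inl i) : ℕ) = i := rfl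
theorem ι_inr (i : Fin chevE8.nroots) : (ι (Sum.inr i) : ℕ) = 8 + (i : ℕ) := rfl

theorem chainCoeff_def (D : ChevalleyDatum) (r s u : ℕ) : D.chainCoeff r s u =
    ((D.chain.getD r #[]).toList.filter fun e => e.1 = s).flatMap fun e =>
      ((e.2.toList.zipIdx).filter fun q => q.1.1 = u).map fun q => (q.2 + 1, q.1.2) := rfl

theorem spM_eq (r : Fin chevE8.nroots) (t : ℕ) :
    (spM 248 3 (sp r t)).submatrix ι ι = chevE8.xMat (ZMod 3) r t := by
  have h := (allLt_iff _ _).1 okR_all r r.2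
  simp only [okR, Bool.and_eq_true, decide_eq_true_eq, List.all_eq_true] at h
  obtain ⟨⟨h1, h2⟩, h4⟩ := h
  have z4 : ∀ i j : ℕ, (i < 8 ∨ j < 8 ∨ j = 8 + (r : ℕ) ∨ j = 8 + chevE8.negIdx.getD r 0) →
      ent 3 (sp4 (chevE8.chain.getD r #[]).toList t) i j = 0 := fun i j hij =>
    ent_eq_zero fun e he b => by
      obtain ⟨a, ha, q, hq, e1, e2, e3⟩ := mem_sp4 he
      have := (h4 a ha).1
      omega
  ext row col
  rw [Matrix.submatrix_apply, spM, Matrix.add_apply, Matrix.of_apply, Matrix.one_apply]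
  simp only [EmbeddingLike.apply_eq_iff_eq, ChevalleyDatum.xMat, Matrix.of_apply]
  rcases row with u | u <;> rcases col with s | s <;> simp only [ι_inl, ι_inr] <;>
    rw [sp, ent_append, ent_append, ent_cons, ent_row, ent_col] <;> dsimp only <;>
    generalize chevE8.negIdx.getD r 0 = v at *
  · have hu : (u : ℕ) < 8 := u.2
    have hs : (s : ℕ) < 8 := s.2
    rw [z4 _ _ (Or.inl hu), if_neg (show ¬ (8 + (r : ℕ) = u ∧ _) by omega),
      if_neg (show ¬ (8 + v = s ∧ _) by omega), if_neg (show ¬ (8 + (r : ℕ) = u ∧ _) by omega)]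
    simp
  · have hu : (u : ℕ) < 8 := u.2
    rw [z4 _ _ (Or.inl hu), if_neg (show ¬ (8 + (r : ℕ) = u ∧ _) by omega),
      if_neg (show ¬ (8 + (r : ℕ) = u ∧ _) by omega)]
    by_cases a : s = r
    · subst a; simp [h1]
    · by_cases b : (s : ℕ) = v
      · subst b; simp [a, hu]
      · simp [a, b, Ne.symm b]
  · have hs : (s : ℕ) < 8 := s.2
    rw [z4 _ _ (Or.inr (Or.inl hs)), if_neg (show ¬ (8 + v = s ∧ _) by omega),
      if_neg (show ¬ (_ ∧ 8 + v = s) by omega)]
    by_cases a : u = r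
    · subst a; simp [hs]
    · simp [a, Fin.val_inj, Ne.symm a]
  · rw [if_neg (show ¬ (_ ∧ 8 + (s : ℕ) < 8) by omega), if_neg (show ¬ (_ ∧ 8 + (u : ℕ) < 8) by omega)]
    by_cases a : s = r
    · subst a
      rw [z4 _ _ (by simp)]; simp [h1]
    · by_cases b : (s : ℕ) = v
      · subst b
        rw [z4 _ _ (by simp)]
        by_cases c : u = s
        · subst c; simp [a, Fin.val_inj, Ne.symm a]
        · by_cases d : u = r
          · subst d; simp [a, c, m3_cast]
          · simp [a, c, d, Fin.val_inj, Ne.symm d]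
      · rw [ent_sp4]
        simp [a, b, Ne.symm b, chainCoeff_def]

/-- every invertible matrix equal to `A` lies in the Chevalley group -/
def In (A : Matrix (Fin 248) (Fin 248) (ZMod 3)) : Prop :=
  ∀ g : GL chevE8.Idx (ZMod 3), g.val = A.submatrix ι ι → g ∈ chevE8.group (ZMod 3)

theorem In.one : In 1 := fun g hg => by
  rw [Matrix.submatrix_one_equiv] at hg
  rw [show g = 1 from Units.ext hg]
  exact one_mem _

theorem In.mul {r : ℕ} (hr : r < 240) (t : ℕ) {A : Matrix (Fin 248) (Fin 248) (ZMod 3)} (h : In A) :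
    In (spM 248 3 (sp r t) * A) := fun g hg => by
  rw [← Matrix.submatrix_mul_equiv _ _ _ ι, spM_eq ⟨r, hr⟩] at hg
  have hu : IsUnit (chevE8.xMat (ZMod 3) ⟨r, hr⟩ t) := by
    have := g.isUnit
    rw [hg, Matrix.isUnit_iff_isUnit_det, Matrix.det_mul] at this
    exact (Matrix.isUnit_iff_isUnit_det _).2 (isUnit_of_mul_isUnit_left this)
  obtain ⟨u, hu⟩ := hu
  have h1 : u ∈ chevE8.group (ZMod 3) := Subgroup.subset_closure ⟨_, _, hu⟩
  have h2 := h (u⁻¹ * g) (by rw [Units.val_mul, hg, ← hu, Units.inv_mul_cancel_left])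
  simpa using mul_mem h1 h2

/-- the parameters -/
abbrev pr (w μ s : ℕ) : Par := ⟨248, w, 3, μ, s⟩

/-- list lookup with a default value -/
noncomputable def gl {α : Type} (d : α) (l : List α) (j : ℕ) : α :=
  List.rec (motive := fun _ => ℕ → α) (fun _ => d)
    (fun a _ ih j => Nat.rec (motive := fun _ => α) a (fun k _ => ih k) j) l j

theorem gl_eq {α : Type} (d : α) : ∀ (l : List α) (j : ℕ), gl d l j = l.getD j d
  | [], _ => rfl
  | _ :: _, 0 => rfl
  | _ :: l, j + 1 => gl_eq d l j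

theorem gl_toList {α : Type} (d : α) (a : Array α) (j : ℕ) : gl d a.toList j = a.getD j d := by
  rw [gl_eq]; simp

/-- `sp` with cheap lookups -/
noncomputable def spF (r t : ℕ) : List (ℕ × ℕ × ℕ) :=
  (List.range 8).map (fun i => (8 + r, i, m3 (-(gl 0 (gl #[] chevE8.cartanSR.toList i).toList r) * t))) ++
  ((List.range 8).map (fun i =>
    (i, 8 + gl 0 chevE8.negIdx.toList r, m3 (gl 0 (gl #[] chevE8.coroot.toList r).toList i * t))) ++
  ((8 + r, 8 + gl 0 chevE8.negIdx.toList r, m3 (-(t ^ 2))) :: sp4 (gl #[] chevE8.chain.toList r).toList t))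

theorem spF_eq (r t : ℕ) : spF r t = sp r t := by simp only [spF, sp, gl_toList]

/-- multiply on the right by a word in the root elements -/
noncomputable def wlK (μ s Eq : ℕ) (c : Tr → Bool) (l : List (ℕ × ℕ)) : Tr → Bool :=
  List.rec (motive := fun _ => Tr → Bool) c (fun e _ ih t => stepK 3 μ s Eq t (spF e.1 e.2) ih) l

variable {w μ s : ℕ}

theorem wlK_spec (h : (pr w μ s).Good) (c : Tr → Bool) : ∀ (l : List (ℕ × ℕ)), (∀ e ∈ l, e.1 < 240) →
    ∀ (B : Matrix (Fin 248) (Fin 248) (ZMod 3)) (t : Tr), TR w B t → ∃ A u, In A ∧ TR w (B * A) u ∧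
      wlK μ s (onesN w 248 * (2 ^ (w - s) - 1)) c l t = c u
  | [], _, B, t, r => ⟨1, t, In.one, by rwa [Matrix.mul_one], rfl⟩
  | e :: l, hw, B, t, r => by
    have he := hw e List.mem_cons_self
    obtain ⟨u, a, b⟩ := stepK_spec h (by norm_num) (by norm_num) r _ (sp_ok he e.2)
    obtain ⟨A, v, c1, c2, c3⟩ := wlK_spec h c l (fun k hk => hw k (List.mem_cons_of_mem _ hk)) _ _ a
    refine ⟨_, v, c1.mul he e.2, by rwa [← Matrix.mul_assoc], Eq.trans ?_ ((b _).trans c3)⟩
    rw [← spF_eq]; rfl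

/-- `b` times the word `l` is `m * b` -/
noncomputable def chk (w μ s N b m : ℕ) (l : List (ℕ × ℕ)) : Bool :=
  (pr w μ s).withM N fun mm => force (onesF w 248 * msk (w - s)) fun Eq => force (w * 248) fun W =>
    force (msk W) fun mW => force b fun b => force m fun m => force (mm m b) fun q =>
      band (allL (fun e => Nat.ble (Nat.succ e.1) 240) l)
        (tabK (H78.Vec.col W mW b) 8 0 (wlK μ s Eq (fun u => allLt (fun j => Nat.beq (u.get j) (H78.Vec.col W mW q j)) 248) l))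

theorem chk_eq (h : (pr w μ s).Good) {N b m : ℕ} {l : List (ℕ × ℕ)} (e : chk w μ s N b m l = true) :
    (∀ k ∈ l, k.1 < 240) ∧ tabK (dig (w * 248) b) 8 0 (wlK μ s (onesN w 248 * (2 ^ (w - s) - 1))
      (fun u => allLt (fun j => Nat.beq (u.get j) (dig (w * 248) ((pr w μ s).mm N m b) j)) 248) l) = true := by
  rw [chk, Par.withM_eq _ h, force_eq, force_eq, force_eq, force_eq, force_eq, force_eq, band_eq_true,
    allL_iff, onesF_eq _ h.w_pos, msk_eq (w - s)] at e
  have : ∀ q, H78.Vec.col (w * 248) (msk (w * 248)) q = dig (w * 248) q := fun q => funext fun j => col_eq _ _ _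
  rw [this, this] at e
  exact ⟨fun k hk => Nat.le_of_ble_eq_true (e.1 k hk), e.2⟩

theorem chk_spec (h : (pr w μ s).Good) {B M : Matrix (Fin 248) (Fin 248) (ZMod 3)} {b m : ℕ}
    (r : (pr w μ s).R 248 B b) (r' : (pr w μ s).R 248 M m) {l : List (ℕ × ℕ)}
    (e : chk w μ s 248 b m l = true) : ∃ A, In A ∧ B * A = M * B := by
  obtain ⟨e1, e2⟩ := chk_eq h e
  obtain ⟨t, a1, a2, a3⟩ := tabK_spec (dig (w * 248) b) 8 0
  rw [a3] at e2
  obtain ⟨A, u, c1, c2, c3⟩ := wlK_spec h _ l e1 B t ⟨a1, fun j => by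
    rw [a2 j (Nat.zero_le _) (by have := j.2; omega)]; exact RM.col r j⟩
  rw [c3, allLt_iff] at e2
  refine ⟨A, c1, ?_⟩
  ext i j
  have h1 := c2.2 j
  rw [Nat.eq_of_beq_eq_true (e2 j j.2)] at h1
  exact congrFun (congrFun (h1.eq_mat (RM.col (r'.mm h r) j)) i) 0

theorem eqns_E8Sp : True := by
  have := @tset.eq_1
  have := @tsetK.eq_1
  have := @WF.eq_1
  have := @tabK.eq_1
  have := @TR.eq_1
  have := @stepK.eq_1
  have := @ent.eq_1
  have := @spM.eq_1
  have := @m3.eq_1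
  have := @sp4.eq_1
  have := @sp.eq_1
  have := @spF.eq_1
  have := @gl.eq_1
  have := @okR.eq_1
  have := @chk.eq_1
  have := @wlK.eq_1
  have := @In.eq_1
  have := @ι.eq_1
  trivial

end H74.E8
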